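import Cfsg.Agent.Schur.Swap
import Cfsg.Agent.SchurG.Co1.Main

set_option autoImplicit false
set_option maxRecDepth 100000

namespace Cfsg.Agent.Schur.Co1
open Cfsg.Agent.Comp Cfsg.Agent.Schur

theorem card : Finite Cfsg.Agent.SchurG.Co1.G ∧ Nat.card Cfsg.Agent.SchurG.Co1.G = 4157776806543360000 := ⟨Cfsg.Agent.SchurG.Co1.card.1, Cfsg.Agent.SchurG.Co1.card.2.1⟩

theorem allIn : AllIn Cfsg.Agent.SchurG.Co1.phi.range Cfsg.Agent.SchurG.Co1.T :=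
  allIn_of_rep Cfsg.Agent.SchurG.Co1.rep Cfsg.Agent.SchurG.Co1.eqs (L' := 16) rfl (by decide +kernel)

end Cfsg.Agent.Schur.Co1
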